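import Cfsg.Agent.Lib.Helper3.Ru.L1
import Cfsg.Agent.Lib.Helper3.Ru.L2
import Cfsg.Agent.Lib.Helper3.Ru.L3
import Cfsg.Agent.Lib.Helper3.Ru.L4
import Cfsg.Agent.Lib.Helper3.Stcs6

set_option autoImplicit false
set_option maxRecDepth 100000

namespace Cfsg.Agent.Lib.Helper3.Ru

open Cfsg.Agent.Lib.Helper11 Cfsg.Agent.Lib.Helper3 MulAction

set_option maxHeartbeats 0

theorem card_eq : Nat.card (lgrp (vL ntl deg) [1, 2]) = 145926144000 := by
  have hL1 := L1.card_eq
  have hL2 := L2.card_eq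
  have hL3 := L3.card_eq
  have hL4 := L4.card_eq
  have hbot : Nat.card (lgrp (vL ntl deg) L4.hl) = 1 := by
    show Nat.card (lgrp (vL ntl deg) []) = 1
    rw [lgrp_nil]
    exact Subgroup.card_bot
  have e0 : lgrp (vL ntl deg) L1.hl = lgrp (vL ntl deg) L2.gens := rfl
  have e1 : lgrp (vL ntl deg) L2.hl = lgrp (vL ntl deg) L3.gens := rfl
  have e2 : lgrp (vL ntl deg) L3.hl = lgrp (vL ntl deg) L4.gens := rfl
  rw [e0, hL2, e1, hL3, e2, hL4, hbot] at hL1
  exact hL1

def RelAll : List (List ℕ) := (L1.BR ++ L1.dl.map (fun p => p.1 ++ [p.2])) ++ (L2.BR ++ L2.dl.map (fun p => p.1 ++ [p.2])) ++ (L3.BR ++ L3.dl.map (fun p => p.1 ++ [p.2])) ++ (L4.BR ++ L4.dl.map (fun p => p.1 ++ [p.2]))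

theorem ubAll {M : Type*} [Group M] (w : ℕ → M) (h0 : w 0 = 1) (hinv : ∀ l, w (invL INV l) = (w l)⁻¹)
    (hrel : ∀ r ∈ RelAll, (r.map w).prod = 1) : Bd w [1, 2] 145926144000 := by
  have hb := Bd_nil w
  have hb3 := L4.ub w h0 hinv (fun r hr => hrel r (by simp only [RelAll, List.mem_append]; tauto))
    (fun r hr => hrel r (by simp only [RelAll, List.mem_append]; tauto)) _ hb
  have hb2 := L3.ub w h0 hinv (fun r hr => hrel r (by simp only [RelAll, List.mem_append]; tauto))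
    (fun r hr => hrel r (by simp only [RelAll, List.mem_append]; tauto)) _ hb3
  have hb1 := L2.ub w h0 hinv (fun r hr => hrel r (by simp only [RelAll, List.mem_append]; tauto))
    (fun r hr => hrel r (by simp only [RelAll, List.mem_append]; tauto)) _ hb2
  have hb0 := L1.ub w h0 hinv (fun r hr => hrel r (by simp only [RelAll, List.mem_append]; tauto))
    (fun r hr => hrel r (by simp only [RelAll, List.mem_append]; tauto)) _ hb1
  exact hb0

theorem pretrans : IsPretransitive (lgrp (vL ntl deg) [1, 2]) (Fin deg) :=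
  setup.pretransitive [1, 2] 28 (by norm_num) (by decide +kernel)

theorem okl : ∀ x ∈ dlLetters L1.gens L1.dl, vL ntl deg x ∈ lgrp (vL ntl deg) [1, 2] := by
  apply dlLetters_mem _ _ L1.dl L1.gens (fun x hx => mem_lgrp _ hx) _ (by decide +kernel)
  intro p hp
  exact setup.rels_of_wordId (L1.dl.map fun p => p.1 ++ [p.2]) (by decide +kernel) _
    (List.mem_map.2 ⟨p, hp, rfl⟩)

def sub : List (ℕ × ℕ × List ℕ × ℕ × ℕ) := [(1, 2304, [1, 3, 1, 3, 1, 2, 1, 3, 1, 2, 1, 2, 1, 3, 1, 3, 1, 3], 10, 6), (2305, 1755, [2, 1, 2, 1, 3, 1, 2, 1, 3, 1, 2, 1, 2, 1, 3, 1, 2, 1, 2, 1, 3, 1, 3, 1, 2, 1], 10, 7)]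

theorem prim : IsPreprimitive (lgrp (vL ntl deg) [1, 2]) (Fin deg) :=
  setup.primitive [1, 2] [4, 6] (dlLetters L1.gens L1.dl) (by norm_num) pretrans okl
    (by decide +kernel) (by decide +kernel) sub (by decide +kernel) (by decide +kernel)
    (by decide +kernel)

theorem simple : IsSimpleGroup (lgrp (vL ntl deg) [1, 2]) := by
  have : Fact (Nat.Prime 7) := ⟨by norm_num⟩
  apply setup.simple_gen2 7 2 3 prim (by decide +kernel) (by decide +kernel) (by norm_num)
    (by decide +kernel) 1125 (by norm_num) (by norm_num) (by norm_num) (by decide +kernel) (by norm_num)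
  rw [card_eq]
  norm_num

end Cfsg.Agent.Lib.Helper3.Ru
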